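import Cfsg.Agent.Asch.NM3
import Cfsg.Agent.Classical.FieldCongr
import Mathlib.Algebra.QuadraticAlgebra.Basic

/-! Exceptional containments for `SU₄` and `SU₆`; transport of maximality; small fields. -/

set_option autoImplicit false

namespace Cfsg.Agent.Asch

open Matrix Cfsg.Geo Module
open scoped Kronecker

variable {ι κ : Type} [Fintype ι] [DecidableEq ι] [Fintype κ] [DecidableEq κ] {F : Type*} [Field F]
  {σ : F ≃+* F} {f : (ι → F) → (ι → F) → F} {H : Subgroup (GL ι F)}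

local notation "rf" => RingEquiv.refl

theorem max_comap {G G' : Type*} [Group G] [Group G'] {X H : Subgroup G} (h : IsMaximalIn X H)
    (φ : G' ≃* G) : IsMaximalIn (X.comap φ.toMonoidHom) (H.comap φ.toMonoidHom) := by
  refine ⟨(Subgroup.comap_lt_comap_of_surjective φ.surjective).2 h.1, fun M h1 h2 => ?_⟩
  have h3 := (Subgroup.comap_map_eq_self_of_injective (f := φ.toMonoidHom) φ.injective M).symm
  refine (h.2 (M.map φ.toMonoidHom) (fun g hg => ⟨φ.symm g, h1 (by simpa using hg), by simp⟩)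
    (Subgroup.map_le_iff_le_comap.2 h2)).imp (fun h => ?_) fun h => ?_ <;> rw [h3, h]

theorem not_max {G : Type*} [Group G] {X H B : Subgroup G} (h : IsMaximalIn X H) (h1 : H ≤ B)
    {w g : G} (hw : w ∈ X) (hw' : w ∉ B) (hg : g ∈ X) (hB : g ∈ B) : g ∈ H :=
  eq_of_max h h1 (fun h => hw' (h hw)) ▸ ⟨hB, hg⟩

theorem pullG_su (e : ι ≃ κ) (P : GL ι F) :
    pullG e P (Iso f ⊓ specialLinear ι F) = Iso (pull e P f) ⊓ specialLinear κ F := by
  ext g
  simp only [mem_pullG, Subgroup.mem_inf, mem_sl, coe_tg, det_tp, mem_iso, pull,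
    (tv e P).surjective.forall, tp_mulVec]

theorem Sesq.exists_onframe [Finite F] (hf : Sesq σ 1 f) (hσ : ∃ a, σ a ≠ a) {t : ℕ}
    {D : Fin t → Submodule F (ι → F)} (hD : IsNondegenerateMDecomposition f 1 D) :
    ∃ (e : ι ≃ Fin t) (P : GL ι F), Asch.pull e P f = formOfGram σ 1 ∧
      ∀ g ∈ decompositionStabilizer D ⊓ Iso f, ∃ π a, g = tg e P (monoGL π a) ∧
        ∀ i, (a i : F) * σ (a i) = 1 := by
  choose b hb using fun i => hf.exists_onb hσ (hD.nondegenerate i) (hD.decomp.finrank_eq i)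
  have h1 : ∀ i j, f (b i 1) (b j 1) = if i = j then 1 else 0 := fun i j => by
    split_ifs with h
    · subst h; simp [hb, form_one]
    · exact hD.orthogonal i j h _ (b i 1).2 _ (b j 1).2
  obtain ⟨e, P, h2, h3⟩ := exists_mframe hD.decomp (fun i => (b i 1).2) fun i h => by
    simpa [h, hf.zero_left] using h1 i i
  refine ⟨e, P, (hf.pull e P).eq_fun.trans (congrArg _ (ext fun i j => ?_)), fun g hg => ?_⟩
  · rw [one_apply, ← h1, ← h2, ← h2]; rfl
  · obtain ⟨π, a, h4, h5⟩ := h3 g hg.1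
    refine ⟨π, a, h4, fun i => ?_⟩
    simpa [h5, hf.smul_left, hf.smul_right, h1] using mem_iso.1 hg.2 (b i 1) (b i 1)

theorem Sesq.pair_semi (hf : Sesq σ 1 f) (hq : ∀ d, σ d = d → d ≠ 0 → d * d = 1)
    {D : Fin 2 → Submodule F (ι → F)} (hD : IsMDecomposition 2 D)
    (h1 : ∀ i, IsTotallySingularFor f (D i)) :
    ∃ θ : (ι → F) →ₛₗ[(σ : F →+* F)] (ι → F), (∀ v, θ (θ v) = v) ∧ (∀ v, f v (θ v) = 0) ∧
      ∀ g ∈ decompositionStabilizer D ⊓ (Iso f ⊓ specialLinear ι F), ∃ c : F, ∀ v,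
        θ (g.val *ᵥ v) = c • g.val *ᵥ θ v := by
  have hv : ∀ (b : ∀ i, (Fin 2 → F) ≃ₗ[F] D i) v, ∃ x y, v = (b 0 x : ι → F) + b 1 y :=
    fun b v => by
    obtain ⟨e, P, hb⟩ := exists_bframe hD b
    obtain ⟨v, rfl⟩ := (tv e P).surjective v
    exact ⟨_, _, by rw [← sum_kv v, Fin.sum_univ_two, map_add, hb, hb]⟩
  obtain ⟨b, hb⟩ : ∃ b : ∀ i, (Fin 2 → F) ≃ₗ[F] D i, ∀ x y, f (b 0 x) (b 1 y) = x ⬝ᵥ σ ∘ y := by
    let b := fun i => (mdec_basis hD i).some
    let G := of fun i j => f (b 0 (Pi.single i 1)) (b 1 (Pi.single j 1))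
    have hG : ∀ x y, f (b 0 x) (b 1 y) = x ⬝ᵥ G *ᵥ σ ∘ y := fun x y => by
      conv_lhs => rw [pi_eq_sum_univ' x, pi_eq_sum_univ' y]
      simp only [Fin.sum_univ_two, map_add, map_smul, Submodule.coe_add, Submodule.coe_smul,
        hf.add_left, hf.add_right, hf.smul_left, hf.smul_right, dotProduct, mulVec, G, of_apply,
        Function.comp_apply]
      ring
    obtain ⟨T, hT⟩ := exists_gl_of_injective (G.map σ) fun y hy => by
      refine (b 1).map_eq_zero_iff.1 (Subtype.ext (hf.nondeg _ fun v => ?_))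
      obtain ⟨x, z, rfl⟩ := hv b v
      rw [hf.add_left, h1 1 _ (b 1 z).2 _ (b 1 y).2, hG, ← map_map_invol hf.invol G, ← comp_mulVec,
        hy]
      simp
    refine ⟨fun i => (tv (Equiv.refl _) (![1, T⁻¹] i)).trans (b i), fun x y => ?_⟩
    have e : ∀ (P : GL (Fin 2) F) v, tv (Equiv.refl _) P v = P.val *ᵥ v := fun _ _ => rfl
    simp only [LinearEquiv.trans_apply, hG, e, cons_val_zero, cons_val_one]
    rw [← map_map_invol hf.invol G, ← comp_mulVec, ← hT, mulVec_mulVec, Units.mul_inv,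
      Units.val_one, one_mulVec, one_mulVec]
  obtain ⟨e, P, hP⟩ := exists_bframe hD b
  have hc : ∀ v : Fin 2 → F, σ ∘ σ ∘ v = v := fun v => funext fun i => hf.invol _
  let θ := (tv e P).toLinearMap ∘ₛₗ semi σ (bm (Equiv.swap 0 1) ![J2 F, -J2 F]) ∘ₛₗ
    (tv e P).symm.toLinearMap
  have hθ : ∀ i x, θ (b i x) = b (Equiv.swap 0 1 i) (![J2 F, -J2 F] i *ᵥ σ ∘ x) := fun i x => by
    rw [← hP, ← hP, ← bm_mulVec]
    simp only [θ, LinearMap.comp_apply, LinearEquiv.coe_coe, LinearEquiv.symm_apply_apply,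
      semi_apply]
    congr 2; funext p; simp [kv, Pi.single_apply, apply_ite σ]
  have hθ0 : ∀ x, θ (b 0 x) = b 1 (J2 F *ᵥ σ ∘ x) := hθ 0
  have hθ1 : ∀ x, θ (b 1 x) = -b 0 (J2 F *ᵥ σ ∘ x) := fun x =>
    (hθ 1 x).trans (by rw [← Submodule.coe_neg, ← map_neg, ← neg_mulVec]; rfl)
  have hJ : (J2 F).map σ = J2 F := by ext i j; fin_cases i <;> fin_cases j <;> simp [J2]
  have hJ2 : J2 F * J2 F = -1 := by ext i j; fin_cases i <;> fin_cases j <;> simp [J2]
  refine ⟨θ, fun v => ?_, fun v => ?_, fun g hg => ?_⟩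
  · obtain ⟨x, y, rfl⟩ := hv b v
    simp only [map_add, map_neg, hθ0, hθ1, comp_mulVec, hJ, mulVec_mulVec, hJ2, hc,
      neg_mulVec, one_mulVec, Submodule.coe_neg, neg_neg]
  · obtain ⟨x, y, rfl⟩ := hv b v
    simp only [map_add, hθ0, hθ1, hf.add_left, hf.add_right, hf.neg_right,
      h1 _ _ (b _ _).2 _ (b _ _).2, hb, hf.herm (b 1 y) (b 0 _)]
    simp [J2, dotProduct, mulVec, hf.invol]; ring
  obtain ⟨π, a, h2, h3⟩ := exists_bm hP hg.1
  have h4 := mem_sl.1 hg.2.2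
  have hπ : π = 1 ∨ π = Equiv.swap 0 1 := by clear h2 h3; revert π; decide
  have h5 : ∀ x y, (a 0).val *ᵥ x ⬝ᵥ σ ∘ ((a 1).val *ᵥ y) = x ⬝ᵥ σ ∘ y := fun x y => by
    have := mem_iso.1 hg.2.1 (b 0 x) (b 1 y)
    rw [h3, h3, hb] at this
    rw [← this]
    obtain rfl | rfl := hπ
    · exact (hb _ _).symm
    · rw [Equiv.swap_apply_left, Equiv.swap_apply_right, hf.herm, hb]
      simp [dotProduct, hf.invol, mul_comm]
  have h6 : (a 0).valᵀ * (a 1).val.map σ = 1 := ext_bilin fun u v => by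
    have := h5 u (σ ∘ v)
    rw [comp_mulVec, hc, ← vecMul_transpose, ← dotProduct_mulVec, mulVec_mulVec] at this
    rw [this, one_mulVec]
  have h7 : ((a 0).val.map σ)ᵀ * (a 1).val = 1 := by
    simpa [Matrix.map_mul, transpose_map, map_map_invol hf.invol] using congrArg (·.map σ) h6
  rw [h2, det_tp, det_bm, Fintype.card_fin, sign_sq, one_mul, Fin.prod_univ_two] at h4
  have h8 := congrArg det h7
  rw [det_mul, det_transpose, ← RingEquiv.mapMatrix_apply, ← RingEquiv.map_det, det_one] at h8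
  have h9 : σ (a 0).val.det = (a 0).val.det :=
    mul_right_cancel₀ (a 1).det_ne_zero (h8.trans h4.symm)
  have h10 := hq _ h9 (a 0).det_ne_zero
  have h11 : (a 1).val.det = (a 0).val.det := mul_left_cancel₀ (a 0).det_ne_zero (h4.trans h10.symm)
  have key : ∀ x y : Matrix (Fin 2) (Fin 2) F, y * (x.map σ)ᵀ = 1 → σ x.det = (a 0).val.det →
      ∀ v, J2 F *ᵥ σ ∘ (x *ᵥ v) = (a 0).val.det • y *ᵥ J2 F *ᵥ σ ∘ v := fun x y h h' v => by
    rw [comp_mulVec, mulVec_mulVec, mulVec_mulVec, ← smul_mulVec, ← h', RingEquiv.map_det,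
      RingEquiv.mapMatrix_apply, ← mul_smul_comm, ← mul_J2, ← mul_assoc, ← mul_assoc, h, one_mul]
  have k1 := key _ _ (mul_eq_one_comm.1 h7) h9
  have k2 := key (a 1) (a 0) (mul_eq_one_comm.1 (by simpa using congrArg transpose h6))
    (h11 ▸ h11 ▸ h9)
  obtain rfl | rfl := hπ
  · refine ⟨(a 0).val.det, fun v => ?_⟩
    obtain ⟨x, y, rfl⟩ := hv b v
    have h3' : ∀ i x, g.val *ᵥ (b i x : ι → F) = b i ((a i).val *ᵥ x) := h3
    simp only [map_add, mulVec_add, mulVec_neg, h3', hθ0, hθ1, k1, k2,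
      map_smul, Submodule.coe_smul, smul_add, smul_neg, map_neg, Submodule.coe_neg]
  · refine ⟨-(a 0).val.det, fun v => ?_⟩
    obtain ⟨x, y, rfl⟩ := hv b v
    have h30 : ∀ x, g.val *ᵥ (b 0 x : ι → F) = b 1 ((a 0).val *ᵥ x) := h3 0
    have h31 : ∀ x, g.val *ᵥ (b 1 x : ι → F) = b 0 ((a 1).val *ᵥ x) := h3 1
    simp only [map_add, mulVec_add, mulVec_neg, h30, h31, hθ0, hθ1, k1, k2, map_smul,
      Submodule.coe_smul, smul_add, smul_neg, neg_smul, neg_neg, map_neg, Submodule.coe_neg]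

variable [Fintype F] {n q : ℕ}

/-- The symplectic subfield case. -/
def SubS (n : ℕ) (F : Type*) [Field F] [Fintype F] (q : ℕ) (p : Subgroup (GL (Fin n) F) → Prop) :
    Prop :=
  ∃ (F₀ : Subfield F) (P : GL (Fin n) F) (ζ : F), Fintype.card F = Nat.card F₀ ^ 2 ∧ ζ ≠ 0 ∧
    ζ + ζ ^ q = 0 ∧ IsFormRationalStructure (hermForm n F q) F₀ ζ P ∧
    (∀ u : Fin n → F, (∀ i, u i ∈ F₀) → hermForm n F q (P.val *ᵥ u) (P.val *ᵥ u) = 0) ∧
    p (subfieldSubgroup F₀ P)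

theorem subS_of_semi (hF : Fintype.card F = q ^ 2) (hn : 3 ≤ n) (hx : ¬ (n = 3 ∧ q = 2))
    {H : Subgroup (GL (Fin n) F)} (hH : IsMaximalIn (GU n F q ⊓ specialLinear _ F) H)
    (θ : (Fin n → F) →ₛₗ[(fq hF : F →+* F)] (Fin n → F)) (h1 : ∀ v, θ (θ v) = v)
    (h2 : ∀ v, hermForm n F q v (θ v) = 0) (h3 : ∀ T : GL (Fin n) F,
      (∀ v, θ (T.val *ᵥ v) = T.val *ᵥ (fq hF ∘ v)) → ∀ g ∈ H, ∃ c : F, ∀ v,
        θ (g.val *ᵥ v) = c • g.val *ᵥ θ v) :
    SubS n F q fun M => H = M ⊓ (GU n F q ⊓ specialLinear _ F) := by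
  have hf := sesq_herm hF n
  have : Nonempty (Fin n) := ⟨⟨0, by omega⟩⟩
  obtain ⟨T, hT⟩ := speiser (φ := fq hF) (d := 2) (orderOf_frob _) two_ne_zero θ h1
  obtain ⟨ζ, h4, h5⟩ := exists_skew_invol (fq_fq hF) (fq_ne hF)
  have h6 : ∀ u : Fin n → F, (∀ i, u i ∈ fixF (fq hF)) → θ (T.val *ᵥ u) = T.val *ᵥ u :=
    fun u hu => by rw [hT, show fq hF ∘ u = u from funext hu]
  have hc : Fintype.card F = Nat.card (fixF (fq hF)) ^ 2 := by rw [card_fixF_fq, hF]
  refine ⟨_, T, ζ, hc, h4, by rw [← fq_apply hF, h5, add_neg_cancel], fun u v hu hv => ?_,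
    fun u hu => by simpa [h6 u hu] using h2 (T.val *ᵥ u), eq_of_max hH (fun g hg => ?_)
      ((qs_su hF hn hx).not_le_subfield' le_rfl hc T)⟩
  · have e1 := h2 (T.val *ᵥ u + T.val *ᵥ v)
    have e2 := h2 (T.val *ᵥ u)
    have e3 := h2 (T.val *ᵥ v)
    rw [map_add] at e1
    simp only [h6 u hu, h6 v hv, hf.add_left, hf.add_right] at e1 e2 e3
    rw [mem_fixF, map_mul, h5, ← one_mul (fq hF (hermForm _ _ _ _ _)), ← hf.herm]
    linear_combination ζ * (e2 + e3 - e1)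
  · obtain ⟨c, hc⟩ := h3 T hT g hg
    exact mem_subfield_of_semi hT hc

theorem sq_eq_one_of_le (hF : Fintype.card F = q ^ 2) (hq : q ≤ 3) (d : F) (h : fq hF d = d)
    (h0 : d ≠ 0) : d * d = 1 := by
  have hq2 := Geom.two_le_of_card_eq_sq hF
  rw [fq_apply] at h
  obtain rfl | rfl : q = 2 ∨ q = 3 := by omega
  all_goals grind

theorem subS_of_pair (hF : Fintype.card F = q ^ 2) (hq : q ≤ 3) {H : Subgroup (GL (Fin 4) F)}
    (hH : IsMaximalIn (GU 4 F q ⊓ specialLinear _ F) H) {D : Fin 2 → Submodule F (Fin 4 → F)}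
    (hD : IsMDecomposition 2 D) (h1 : ∀ i, IsTotallySingularFor (hermForm 4 F q) (D i))
    (h : H ≤ decompositionStabilizer D) :
    SubS 4 F q fun M => H = M ⊓ (GU 4 F q ⊓ specialLinear _ F) := by
  obtain ⟨θ, h2, h3, h4⟩ := (sesq_herm hF 4).pair_semi (sq_eq_one_of_le hF hq) hD h1
  exact subS_of_semi hF (by omega) (by omega) hH θ h2 h3 fun _ _ g hg => h4 g ⟨h hg, hH.1.le hg⟩

theorem sym_of_frame (hF : Fintype.card F = 3 ^ 2) {H : Subgroup (GL (Fin 4) F)}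
    (hH : IsMaximalIn (GU 4 F 3 ⊓ specialLinear _ F) H) {D : Fin 4 → Submodule F (Fin 4 → F)}
    (hD : IsNondegenerateMDecomposition (hermForm 4 F 3) 1 D) (h : H ≤ decompositionStabilizer D) :
    ∃ R : Subgroup (GL (Fin 4) F), IsSymplecticTypeGroup 2 R ∧
      ActsAbsolutelyIrreducibly (matrixSet R) ∧ R ≤ similarityGroup (hermForm 4 F 3) ∧
      Nat.card R = 64 ∧ Nat.card (Subgroup.center R) = 4 ∧
      H = subgroupNormalizer R ⊓ (GU 4 F 3 ⊓ specialLinear _ F) := by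
  have hf := sesq_herm hF 4
  have h2 : (2 : F) ≠ 0 := two_ne_zero_of_odd (by rw [hF]; decide)
  obtain ⟨e, P, h3, h4⟩ := hf.exists_onframe (fq_ne hF) hD
  have hN := (sym_P4 h2).push e P
  have hR := Sym.push_root_sup _ e P (P4_root_sup h2)
  have hs := hN.span_of_sup hR
  have hZ : Nat.card (Subgroup.center hN.root) = 4 := by
    rw [card_center hs, hN.card_comap_root, Nat.card_eq_fintype_card, hF]; rfl
  have h5 : ∀ a : Fˣ, (a : F) * fq hF a = 1 ↔ a ^ 4 = 1 := fun a => by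
    rw [fq_apply, ← pow_succ', ← Units.val_pow_eq_pow_val, Units.val_eq_one]
  have hU : hN.root ≤ GU 4 F 3 := by
    rintro _ ⟨⟨_, ⟨π, a, h6, h7, rfl⟩, rfl⟩, h8⟩
    have h9 : monoGL π a ^ (2 * 2) = 1 := (tg e P).map_eq_one_iff.1 (by rw [map_pow]; exact h8)
    rw [pow_mul, P4_sq h6 h7, ← map_pow, ← map_one (sc (Fin 4))] at h9
    have h10 := sc_injective h9
    have : monoGL π a ∈ Iso (Asch.pull e P (hermForm 4 F 3)) := mem_iso.2 fun u v => by
      rw [h3, ← diagonal_one, coe_monoGL, form_mono]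
      congr 2; funext i
      rw [one_mul, h5, show 4 = 2 + 2 from rfl, pow_add]
      rw [mul_pow, (h7 (π 0)).1 i, (h7 0).1 i] at h10
      exact h10
    refine mem_iso.2 fun u v => ?_
    obtain ⟨u, rfl⟩ := (tv e P).surjective u
    obtain ⟨v, rfl⟩ := (tv e P).surjective v
    simpa only [MulEquiv.toMonoidHom_eq_coe, MonoidHom.coe_coe, tg_mulVec, Asch.pull] using
      mem_iso.1 this u v
  have hy := hN.isSymplecticTypeGroup_root hR (Or.inr ((FiniteField.isSquare_neg_one_iff.2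
    (by rw [hF]; decide)).imp fun _ h => h.symm))
  refine ⟨hN.root, hy, absIrr_of_gspan hs, hU.trans (iso_le_sim _),
    by rw [hN.card_of_sup hR (m := 2) (by simp), hZ]; rfl, hZ, eq_of_max hH ?_
      ((qs_su hF (by omega) (by omega)).not_le_gnorm hy.prime hy.pGroup hs
        ((nrm_iso (hU.trans (iso_le_sim _))).inf (nrm_sl _)))⟩
  refine (hN.nrm_root (nrm_P4_of_frame (D := D) (hH.1.le.trans inf_le_right)
    fun g hg => ?_)).le_normalizer
  obtain ⟨π, a, h6, h7⟩ := h4 g ⟨h hg, (hH.1.le hg).1⟩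
  exact ⟨π, a, h6, fun i => (h5 _).1 (h7 i)⟩

end Cfsg.Agent.Asch
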