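import Cfsg.Agent.Asch.SU1
import Mathlib.RingTheory.Norm.Transitivity

/-! Hermitian forms over an extension field; the exceptional containments in `SU₆(2)`. -/

set_option autoImplicit false

namespace Cfsg.Agent.Asch

open Matrix Cfsg.Geo Module

universe u

variable {ι : Type} [Fintype ι] [DecidableEq ι] {F : Type u} [Field F] {σ : F ≃+* F}
  {f : (ι → F) → (ι → F) → F} {K : Subalgebra F (Matrix ι ι F)} {L : Type u} [Field L]
  [Algebra F L] {m : ℕ} {ρ : L →ₐ[F] Matrix ι ι F} {Φ : (Fin m → L) ≃ₗ[F] (ι → F)}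

theorem Ext.comp (h : Ext K L ρ Φ) (T : GL (Fin m) L) :
    Ext K L ρ (((tv (Equiv.refl _) T).restrictScalars F).trans Φ) where
  range := h.range
  app l x := by simp [h.app]
  norm g hg := by
    obtain ⟨α, M, h1, h2⟩ := h.norm g hg
    have e : ∀ v, tv (Equiv.refl _) T v = T.val *ᵥ v := fun _ => rfl
    refine ⟨α, T⁻¹.val * M * T.val.map α.toRingEquiv, h1, fun x => ?_⟩
    simp only [LinearEquiv.trans_apply, LinearEquiv.restrictScalars_apply, e, h2]
    rw [mulVec_mulVec, ← mul_assoc, ← mul_assoc, Units.mul_inv, one_mul, ← mulVec_mulVec]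
    exact congrArg _ (congrArg _ (comp_mulVec α.toRingEquiv _ _))

theorem Ext.det [Finite L] (h : Ext K L ρ Φ) (l : L) :
    algebraMap F L (ρ l).det = (l ^ ((Nat.card L - 1) / (Nat.card F - 1))) ^ m := by
  have h1 : toLin' (ρ l) = Φ.conj ((l • LinearMap.id : _ →ₗ[L] _).restrictScalars F) := by
    refine LinearMap.ext fun v => ?_
    obtain ⟨x, rfl⟩ := Φ.surjective v
    simp [h.app]
  rw [← LinearMap.det_toLin', h1, LinearEquiv.conj_apply, LinearMap.comp_assoc, LinearMap.det_conj,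
    LinearMap.det_restrictScalars, FiniteField.algebraMap_norm_eq_pow, LinearMap.det_smul,
    LinearMap.det_id, mul_one, ← pow_mul, ← pow_mul, mul_comm]
  simp

/-- A Hermitian form as the trace of a Hermitian form over an extension field. -/
structure HExt (σ : F ≃+* F) (f : (ι → F) → (ι → F) → F) (K : Subalgebra F (Matrix ι ι F))
    (ρ : L →ₐ[F] Matrix ι ι F) (Φ : (Fin m → L) ≃ₗ[F] (ι → F)) (τ : L ≃+* L) : Prop
    extends Ext K L ρ Φ where
  invol : ∀ l, τ (τ l) = l
  map : ∀ c, τ (algebraMap F L c) = algebraMap F L (σ c)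
  form : ∀ x y, f (Φ x) (Φ y) = Algebra.trace F L (formOfGram τ 1 x y)

theorem exists_hext [Finite F] [Nonempty ι] (hf : Sesq σ 1 f) (hσ : ∃ a, σ a ≠ a) {d : ℕ}
    (hK : IsFieldSubalgebra d K) (ha : ∀ x ∈ K, adj σ f x ∈ K) (hm : Fintype.card ι = d * m) :
    ∃ (L : Type u) (_ : Field L) (_ : Finite L) (_ : Algebra F L) (ρ : L →ₐ[F] Matrix ι ι F)
      (Φ : (Fin m → L) ≃ₗ[F] (ι → F)) (s : ℕ) (hs : Nat.card L = s ^ 2),
        HExt σ f K ρ Φ (frob hs) ∧ Nat.card L = Nat.card F ^ d := by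
  obtain ⟨L, _, _, _, ρ, Φ, h, hc⟩ := exists_ext hK hm
  have hsc : ∀ a : F, adj σ f (ρ (algebraMap F L a)) = ρ (algebraMap F L (σ a)) := fun a => by
    simp only [Algebra.algebraMap_eq_smul_one, map_smul, map_one, hf.adj_smul, hf.adj_one]
  obtain ⟨a, hσa⟩ := hσ
  have hne : adj σ f (ρ (algebraMap F L a)) ≠ ρ (algebraMap F L a) := fun h => hσa
    ((algebraMap F L).injective (ρ.toRingHom.injective ((hsc a).symm.trans h)))
  obtain ⟨s, h1, h2, -⟩ := Fld.adj_eq_pow hK hf ha ⟨_, (h.range _).2 ⟨_, rfl⟩, hne⟩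
  have hs := hc.trans h1
  have h3 : ∀ l, adj σ f (ρ l) = ρ (frob hs l) := fun l => by
    rw [h2 _ ((h.range _).2 ⟨_, rfl⟩), frob_apply, map_pow]
  have h4 : ∀ l, frob hs (frob hs l) = l := fun l => ρ.toRingHom.injective (by
    change ρ _ = ρ _; rw [← h3, ← h3, hf.adj_adj])
  have h5 : ∀ c, frob hs (algebraMap F L c) = algebraMap F L (σ c) := fun c =>
    ρ.toRingHom.injective ((h3 _).symm.trans (hsc c))
  have h6 : ∀ l, Algebra.trace F L (frob hs l) = σ (Algebra.trace F L l) := fun l => by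
    rw [Algebra.trace_eq_of_equiv_equiv σ (frob hs) (RingHom.ext fun c => (h5 c).symm) l,
      RingEquiv.apply_symm_apply]
  choose b hb using fun x y : Fin m → L => exists_tr (F := F) (L := L)
    { toFun := fun l => f (Φ (l • x)) (Φ y)
      map_add' := fun l l' => by rw [add_smul, map_add, hf.add_left]
      map_smul' := fun c l => by rw [smul_assoc, map_smul, hf.smul_left]; rfl }
  simp only [LinearMap.coe_mk, AddHom.coe_mk] at hb
  have hu : ∀ {a b : L}, (∀ l, Algebra.trace F L (a * l) = Algebra.trace F L (b * l)) → a = b :=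
    fun h => sub_eq_zero.1 (eq_zero_of_tr (F := F) fun l => by rw [sub_mul, map_sub, h, sub_self])
  have h7 : Sesq (frob hs) 1 b :=
    { invol := h4
      eps := by simp
      add_left := fun x y v => hu fun l => by
        rw [add_mul, map_add, ← hb, ← hb, ← hb, smul_add, map_add, hf.add_left]
      smul_left := fun c x v => hu fun l => by
        rw [← hb, mul_comm c, mul_assoc, ← hb, smul_smul, mul_comm]
      herm := fun v w => hu fun l => by
        rw [← hb, ← h.app, hf.adj_spec, h3, h.app, hf.herm, hb, ← h6, map_mul, h4, one_mul, one_mul]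
      nondeg := fun v hv => Φ.map_eq_zero_iff.1 (hf.nondeg _ fun x => by
        obtain ⟨x, rfl⟩ := Φ.surjective x
        simpa [hv] using hb x v 1) }
  obtain ⟨T, hT⟩ := h7.exists_orthonormal ⟨_, fun h => hne (by rw [h3, h])⟩
  refine ⟨L, inferInstance, inferInstance, inferInstance, ρ, _, s, hs,
    ⟨h.comp T, h4, h5, fun x y => ?_⟩, hc⟩
  rw [← hT, ← gram_sim, ← h7.eq_formOfGram, ← mul_one (b _ _), ← hb, one_smul]; rfl

theorem HExt.unitary [Finite F] [Finite L] {τ : L ≃+* L} (h : HExt σ f K ρ Φ τ) {g : GL ι F}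
    (hg : g ∈ subalgebraNormalizer K) (hi : g ∈ Iso f) : ∃ (α : L ≃ₐ[F] L)
      (M : Matrix (Fin m) (Fin m) L), Mᵀ * M.map τ = 1 ∧ ∀ x, g.val *ᵥ Φ x = Φ (M *ᵥ (α ∘ x)) := by
  obtain ⟨α, M, -, h2⟩ := h.norm g hg
  refine ⟨α, M, ext fun i j => sub_eq_zero.1 (eq_zero_of_tr (F := F) fun l => ?_), h2⟩
  obtain ⟨l, rfl⟩ := α.surjective l
  have h3 := mem_iso.1 hi (Φ (Pi.single i l)) (Φ (Pi.single j 1))
  have h4 : ∀ i l, α ∘ Pi.single i l = Pi.single (M := fun _ : Fin m => L) i (α l) := fun i l =>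
    funext fun k => by simp [Pi.single_apply, apply_ite α]
  rw [h2, h2, h.form, h.form, gram_sim, h4, h4, mul_one,
    ← Algebra.trace_eq_of_algEquiv α (formOfGram τ 1 _ _)] at h3
  rw [sub_mul, map_sub, sub_eq_zero]
  convert h3 using 2
  · simp [formOfGram_eq, mul_comm, Function.comp_def, Pi.single_apply, apply_ite τ, mulVec,
      dotProduct]
  · simp [formOfGram_eq, mul_comm, Function.comp_def, Pi.single_apply, apply_ite τ, one_apply,
      apply_ite α]

theorem J2_semi {σ : F ≃+* F} {x y : Matrix (Fin 2) (Fin 2) F} (h : y * (x.map σ)ᵀ = 1)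
    (v : Fin 2 → F) : J2 F *ᵥ σ ∘ (x *ᵥ v) = σ x.det • y *ᵥ J2 F *ᵥ σ ∘ v := by
  rw [comp_mulVec, mulVec_mulVec, mulVec_mulVec, ← smul_mulVec, RingEquiv.map_det,
    RingEquiv.mapMatrix_apply, ← mul_smul_comm, ← mul_J2, ← mul_assoc, ← mul_assoc, h, one_mul]

/-- `GU₂(8).3 ∩ SU₆(2)` is of symplectic type. -/
theorem subS_of_cubic [Fintype F] (hF : Fintype.card F = 2 ^ 2) {H : Subgroup (GL (Fin 6) F)}
    (hH : IsMaximalIn (GU 6 F 2 ⊓ specialLinear _ F) H) {K : Subalgebra F (Matrix (Fin 6) (Fin 6) F)}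
    (hK : IsFieldSubalgebra 3 K) (ha : IsAdjointClosedFor (hermForm 6 F 2) K)
    (h : H ≤ subalgebraNormalizer K) :
    SubS 6 F 2 fun M => H = M ⊓ (GU 6 F 2 ⊓ specialLinear _ F) := by
  have hf := sesq_herm hF 6
  obtain ⟨L, _, _, _, ρ, Φ, s, hs, hE, hc⟩ :=
    exists_hext (m := 2) hf (fq_ne hF) hK (hf.isAdjointClosedFor_iff.1 ha) (by simp)
  have h4 : Nat.card F = 4 := by rw [Nat.card_eq_fintype_card, hF]; rfl
  obtain rfl : 8 = s := Nat.pow_left_injective two_ne_zero (by rw [← hs, hc, h4]; rfl : 8 ^ 2 = s ^ 2)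
  have h2 := two_eq_zero_ext (L := L) (two_eq_zero_of_four hF)
  let θ : (Fin 6 → F) →ₛₗ[(fq hF : F →+* F)] (Fin 6 → F) :=
    { toFun := fun w => Φ (J2 L *ᵥ frob hs ∘ Φ.symm w)
      map_add' := fun u v => by
        rw [← map_add, ← mulVec_add, map_add]; congr 2; funext i; simp [-frob_apply]
      map_smul' := fun c v => by
        rw [← map_smul, ← mulVec_smul, map_smul]; congr 2; funext i
        simp [-frob_apply, Algebra.smul_def, hE.map] }
  have hθ : ∀ x, θ (Φ x) = Φ (J2 L *ᵥ frob hs ∘ x) := fun x => by simp [θ]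
  refine subS_of_semi hF (by omega) (by omega) hH θ (fun v => ?_) (fun v => ?_) fun T hT g hg => ?_
  · obtain ⟨x, rfl⟩ := Φ.surjective v
    rw [hθ, hθ]; congr 1; funext i
    fin_cases i <;> simp [-frob_apply, J2, mulVec, dotProduct, hE.invol] <;> grind
  · obtain ⟨x, rfl⟩ := Φ.surjective v
    rw [hθ, hE.form, form_one]
    simp [-frob_apply, J2, mulVec, dotProduct, hE.invol, mul_comm]
  obtain ⟨α, M, h5, h6⟩ := hE.unitary (h hg) (hH.1.le hg).1
  have h7 : ∀ v, θ (g.val *ᵥ v) = (ρ (frob hs M.det) * g.val) *ᵥ θ v := fun v => by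
    obtain ⟨x, rfl⟩ := Φ.surjective v
    rw [h6, hθ, hθ, ← mulVec_mulVec, h6, hE.app, J2_semi (y := M)
      (mul_eq_one_comm.1 (by simpa using congrArg transpose h5))]
    congr 3; funext i
    fin_cases i <;> simp [J2, mulVec, dotProduct]
  have h8 := congrArg det (map_eq_of_semi' hT h7)
  rw [← RingEquiv.mapMatrix_apply, ← RingEquiv.map_det, det_cj, det_cj, det_mul,
    mem_sl.1 (hH.1.le hg).2, map_one, mul_one] at h8
  have h9 := hE.det (frob hs M.det)
  rw [← h8, map_one, hs, h4, ← pow_mul] at h9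
  have h10 := congrArg (fun x => frob hs (det x)) h5
  simp only [det_mul, det_transpose, ← RingEquiv.mapMatrix_apply, ← RingEquiv.map_det, det_one,
    map_one, map_mul] at h10
  rw [frob_apply hs (frob hs _), ← pow_succ'] at h10
  obtain ⟨c, hc⟩ := mem_range_algebraMap (F := F) (x := frob hs M.det) (by
    rw [h4, pow_succ, show frob hs M.det ^ 3 = 1 from _root_.pow_gcd_eq_one.2 ⟨h9.symm, h10⟩,
      one_mul])
  exact ⟨c, fun v => by rw [h7, ← hc, AlgHom.commutes, ← Algebra.smul_def, smul_mulVec]⟩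

section small

/-- The special unitary group of the standard form. -/
def SU1 (ι : Type) [Fintype ι] [DecidableEq ι] {F : Type*} [Field F] (σ : F ≃+* F) :
    Subgroup (GL ι F) := Iso (formOfGram σ 1) ⊓ specialLinear ι F

theorem mem_SU1 {F : Type*} [Field F] {σ : F ≃+* F} {g : GL ι F} :
    g ∈ SU1 ι σ ↔ g.valᵀ * g.val.map σ = 1 ∧ g.val.det = 1 := by
  have := gram_isom_iff σ 1 g.val 1
  simp only [one_mul, mul_one, one_smul] at this
  rw [SU1, Subgroup.mem_inf, mem_iso, this, mem_sl]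

variable {E : Type*} [Field E] {τ : E ≃+* E}

theorem max_field (e : E ≃+* F) (he : ∀ x, e (τ x) = σ (e x)) {H : Subgroup (GL ι F)}
    (h : IsMaximalIn (SU1 ι σ) H) :
    IsMaximalIn (SU1 ι τ) (H.comap (Classical.glCongr e).toMonoidHom) := by
  convert max_comap h (Classical.glCongr e)
  ext g
  have h1 : (Classical.glCongr e g).val = e.mapMatrix g.val := rfl
  rw [Subgroup.mem_comap, mem_SU1, mem_SU1, MulEquiv.coe_toMonoidHom, h1, ← RingEquiv.map_det,
    e.map_eq_one_iff, ← e.mapMatrix.map_eq_one_iff, map_mul]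
  simp [transpose_map, Function.comp_def, he]

theorem frame_red [Finite F] {f : (ι → F) → (ι → F) → F} (hf : Sesq σ 1 f) (hσ : ∃ a, σ a ≠ a)
    {t : ℕ} {D : Fin t → Submodule F (ι → F)} (hD : IsNondegenerateMDecomposition f 1 D)
    {H : Subgroup (GL ι F)} (hH : IsMaximalIn (Iso f ⊓ specialLinear ι F) H)
    (h : H ≤ decompositionStabilizer D) (e : E ≃+* F) (he : ∀ x, e (τ x) = σ (e x)) :
    ∃ H : Subgroup (GL (Fin t) E), IsMaximalIn (SU1 _ τ) H ∧ ∀ g ∈ H, ∃ π a, g.val = mono π a := by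
  obtain ⟨e', P, h1, h2⟩ := hf.exists_onframe hσ hD
  have h3 : IsMaximalIn (pullG e' P _) (pullG e' P H) := max_comap hH (tg e' P)
  rw [pullG_su, h1] at h3
  refine ⟨_, max_field e he h3, fun g hg => ?_⟩
  obtain ⟨π, a, h4, -⟩ := h2 _ ⟨h hg, (hH.1.le hg).1⟩
  refine ⟨π, fun i => e.symm (a i), ext fun i j => e.injective ?_⟩
  have h5 : g.val.map e = _ := congrArg Units.val ((tg e' P).injective h4)
  simpa [coe_monoGL, mono, apply_ite e] using congrFun (congrFun h5 i) j

instance qaFin {R : Type} [Fintype R] (a b : R) : Fintype (QuadraticAlgebra R a b) :=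
  Fintype.ofEquiv _ (QuadraticAlgebra.equivProd a b).symm

theorem exists_qa [Fintype F] {q : ℕ} (hF : Fintype.card F = q ^ 2) (E : Type*) [Field E]
    [Fintype E] [StarRing E] (h : Fintype.card E = q ^ 2) (hs : ∀ x : E, x ^ q = star x) :
    ∃ e : E ≃+* F, ∀ x, e (starRingAut x) = fq hF (e x) := by
  obtain ⟨e⟩ := Classical.nonempty_ringEquiv_of_card_eq (K := E) (F := F) (by simp [h, hF])
  exact ⟨e, fun x => by rw [fq_apply, ← map_pow, hs]; rfl⟩

instance factK4 : Fact (∀ r : ZMod 2, r ^ 2 ≠ 1 + 1 * r) := ⟨by decide⟩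

/-- The field with four elements. -/
abbrev K4 := QuadraticAlgebra (ZMod 2) 1 1

theorem exists_K4 [Fintype F] (hF : Fintype.card F = 2 ^ 2) :
    ∃ e : K4 ≃+* F, ∀ x, e (starRingAut x) = fq hF (e x) :=
  exists_qa hF K4 (by decide +kernel) (by decide +kernel)

/-- The `126` isotropic points of `3.U₄(3).2`. -/
def S126 (x : Fin 6 → K4) : Prop := ∑ i, (if x i = 0 then 0 else 1) = 2 ∨ ∏ i, x i = 1

instance decS126 : DecidablePred S126 := fun _ => inferInstanceAs (Decidable (_ ∨ _))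

theorem S126_aux : ∀ a b c d e g : K4, S126 ![a, b, c, d, e, g] →
    S126 (![a, b, c, d, e, g] + (a + b + c + d + e + g) • 1) := by decide +kernel

theorem not_frame_six [Fintype F] (hF : Fintype.card F = 2 ^ 2) {H : Subgroup (GL (Fin 6) F)}
    (hH : IsMaximalIn (GU 6 F 2 ⊓ specialLinear _ F) H) {D : Fin 6 → Submodule F (Fin 6 → F)}
    (hD : IsNondegenerateMDecomposition (hermForm 6 F 2) 1 D) : ¬ H ≤ decompositionStabilizer D := by
  intro h
  obtain ⟨e, he⟩ := exists_K4 hF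
  obtain ⟨H, h1, h2⟩ := frame_red (sesq_herm hF 6) (fq_ne hF) hD hH h e he
  have hf : Sesq starRingAut 1 (formOfGram (starRingAut (R := K4)) (1 : Matrix (Fin 6) _ _)) :=
    sesq_one star_star
  obtain ⟨g, g1, g2, g3⟩ := hf.exists_qrefl 1 (c := 1) (by rw [form_one]; decide +kernel)
    (by rw [form_one]; decide +kernel)
  obtain ⟨w, w1, w2, w3⟩ := hf.exists_qrefl ![1, 1, 1, 1, 0, 0] (c := 1)
    (by rw [form_one]; decide +kernel) (by rw [form_one]; decide +kernel)
  simp only [form_one] at g2 g3 w2 w3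
  refine (h2 g (not_max (B := sstab {x | S126 x}) (w := w) h1 (fun k hk => ?_)
    ⟨w1, mem_sl.2 (w3.trans (by decide +kernel))⟩ (fun h => ?_)
    ⟨g1, mem_sl.2 (g3.trans (by decide +kernel))⟩ (mem_sstab fun x hx => ?_))).elim
      fun π ⟨a, h3⟩ => ?_
  · obtain ⟨π, a, h3⟩ := h2 k hk
    have h4 := (mem_SU1.1 (h1.1.le hk)).2
    have h5 : ∀ u : ℤˣ, ((u : ℤ) : K4) = 1 := by decide +kernel
    rw [h3, det_mono, h5, one_mul] at h4
    refine mem_sstab fun x hx => hx.imp (fun h6 => ?_) fun h6 => ?_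
    · have := fun l => Finset.prod_ne_zero_iff.1 (h4 ▸ one_ne_zero) l (Finset.mem_univ _)
      rw [← Equiv.sum_comp π]
      simpa only [h3, mono_mulVec, mul_eq_zero, this, false_or] using h6
    · rw [← Equiv.prod_comp π]
      simp [h3, mono_mulVec, Finset.prod_mul_distrib, h4, h6]
  · have := (h ![1, 0, 0, 0, 1, 0]).1 (by decide +kernel)
    rw [w2] at this
    revert this; decide +kernel
  · have := S126_aux (x 0) (x 1) (x 2) (x 3) (x 4) (x 5)
    rw [show ![x 0, x 1, x 2, x 3, x 4, x 5] = x from funext fun i => by fin_cases i <;> rfl] at this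
    simpa [g2, Fin.sum_univ_six] using this hx
  · have h4 := g2 (Pi.single 0 1)
    rw [h3, mono_single] at h4
    revert h4; generalize π 0 = i, a 0 * 1 = c; revert i c; decide +kernel

end small

end Cfsg.Agent.Asch
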