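import Cfsg.Agent.Asch.SU2

/-! Reduction of the small exceptional cases in `SU₃` and `SU₅` to explicit matrices. -/

set_option autoImplicit false

namespace Cfsg.Agent.Asch

open Matrix Cfsg.Geo Module Subgroup

universe u

section group

variable {G G' : Type*} [Group G] [Group G'] {X H : Subgroup G}

theorem sylow_conj [Finite X] {p k : ℕ} (hp : p.Prime) {A B : Subgroup G} (hA : A ≤ X) (hB : B ≤ X)
    (hc : Nat.card A = p ^ k) (hk : (Nat.card X).factorization p = k) (h : IsPGroup p B) :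
    ∃ g ∈ X, ∀ b ∈ B, g * b * g⁻¹ ∈ A := by
  haveI := Fact.mk hp
  let P := Sylow.ofCard (A.subgroupOf X) (by
    rw [hk, ← hc]; exact Nat.card_congr (subgroupOfEquivOfLe hA).toEquiv)
  obtain ⟨S, hS⟩ := (h.comap_of_injective X.subtype X.subtype_injective).exists_le_sylow
  obtain ⟨g, hg⟩ := MulAction.exists_smul_eq X S P
  refine ⟨g, g.2, fun b hb => ?_⟩
  have : MulAut.conj g • (⟨b, hB hb⟩ : X) ∈ ((g • S : Sylow p X) : Subgroup X) :=
    smul_mem_pointwise_smul _ _ _ (hS hb)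
  rwa [hg] at this

theorem comap_conj_trans (φ : G' ≃* G) {g : G} (hg : g ∈ X) :
    X.comap (φ.trans (MulAut.conj g)).toMonoidHom = X.comap φ.toMonoidHom := by
  ext x
  simp [X.mul_mem_cancel_left hg, X.mul_mem_cancel_right (X.inv_mem hg)]

theorem sylow_red [Finite X] {p k : ℕ} (hp : p.Prime) {A : Subgroup G} (hA : A ≤ X)
    (hc : Nat.card A = p ^ k) (hk : (Nat.card X).factorization p = k) (φ : G' ≃* G)
    {B : Subgroup G'} (hB : B ≤ X.comap φ.toMonoidHom) (h : IsPGroup p B) :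
    ∃ ψ : G' ≃* G, X.comap ψ.toMonoidHom = X.comap φ.toMonoidHom ∧ ∀ b ∈ B, ψ b ∈ A := by
  obtain ⟨g, hg, h1⟩ := sylow_conj hp hA (map_le_iff_le_comap.2 hB) hc hk (h.map _)
  exact ⟨_, comap_conj_trans φ hg, fun b hb => h1 _ ⟨b, hb, rfl⟩⟩

/-- The group-theoretic shadow of the normaliser of a Singer cycle. -/
def SingerLike (X H : Subgroup G) (x : G) (Q N : ℕ) : Prop :=
  (∀ h ∈ H, ∃ j, h * x * h⁻¹ = x ^ Q ^ j) ∧
    ∀ y ∈ X, Commute y x → orderOf y = N → ∀ k ∈ X, Commute k x → k ∈ zpowers y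

theorem SingerLike.comap {Q N : ℕ} (φ : G' ≃* G) {x : G'} (h : SingerLike X H (φ x) Q N) :
    SingerLike (X.comap φ.toMonoidHom) (H.comap φ.toMonoidHom) x Q N :=
  ⟨fun k hk => (h.1 _ hk).imp fun j hj => φ.injective (by simpa using hj),
    fun y hy h1 h2 k hk h3 => (h.2 _ hy (h1.map φ) (by simpa using h2) _ hk (h3.map φ)).imp
      fun j hj => φ.injective (by simpa using hj)⟩

theorem SingerLike.false {Q N : ℕ} {x y u z w : G} (h : SingerLike X H x Q N)
    (hH : IsMaximalIn X H) (B : Subgroup G) (hy : y ∈ B ⊓ X) (h1 : Commute y x) (h2 : orderOf y = N)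
    (hu : u ∈ B ⊓ X) (h3 : u * x = x ^ Q * u) (hz : z ∈ B ⊓ X) (h4 : ¬ Commute (z * x * z⁻¹) x)
    (hw : w ∈ X) (hw' : w ∉ B) : False := by
  have h5 : ∀ j, u ^ j * x * (u ^ j)⁻¹ = x ^ Q ^ j := fun j => by
    induction j with
    | zero => simp
    | succ j ih =>
      rw [pow_succ u, pow_succ' Q, pow_mul, ← pow_mul, mul_comm Q, pow_mul, ← ih, conj_pow,
        mul_assoc (u ^ j), h3]
      group
  refine (h.1 z (not_max hH (fun k hk => ?_) hw hw' hz.2 hz.1)).elim fun j hj =>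
    h4 (hj ▸ (Commute.refl x).pow_left _)
  obtain ⟨j, hj⟩ := h.1 k hk
  have := h.2 y hy.2 h1 h2 ((u ^ j)⁻¹ * k) (X.mul_mem (X.inv_mem (X.pow_mem hu.2 _)) (hH.1.le hk))
    (by rw [← h5, mul_inv_eq_iff_eq_mul] at hj; rw [Commute, SemiconjBy, mul_assoc, hj]; group)
  exact (B.mul_mem_cancel_left (B.inv_mem (B.pow_mem hu.1 j))).1 (zpowers_le.2 hy.1 this)

end group

variable {F : Type u} [Field F] [Fintype F] {n q : ℕ} {E : Type*} [Field E] {τ : E ≃+* E}

theorem card_su (hF : Fintype.card F = q ^ 2) (hn : 1 ≤ n) :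
    (q + 1) * Nat.card (GU n F q ⊓ specialLinear (Fin n) F : Subgroup _) = q ^ (n * (n - 1) / 2) *
      ∏ i ∈ Finset.range n, (if Even i then q ^ (i + 1) + 1 else q ^ (i + 1) - 1) := by
  haveI := Fact.mk hF
  rw [← Classical.card_GU (F := F), ← Classical.card_SU_mul hn]
  congr 1
  exact Nat.card_congr ⟨fun g => ⟨⟨g.1.val, mem_sl.1 g.2.2⟩, g.2.1⟩,
    fun a => ⟨SpecialLinearGroup.toGL a.1, a.2, mem_sl.2 a.1.2⟩, fun _ => Subtype.ext (Units.ext rfl),
    fun _ => rfl⟩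

theorem su_eq (hF : Fintype.card F = q ^ 2) :
    GU n F q ⊓ specialLinear (Fin n) F = SU1 (Fin n) (fq hF) := by
  rw [GU_eq, hermForm_eq hF]; rfl

theorem comap_SU1 {ι : Type} [Fintype ι] [DecidableEq ι] {σ : F ≃+* F} (e : E ≃+* F)
    (he : ∀ x, e (τ x) = σ (e x)) :
    (SU1 ι σ).comap (Classical.glCongr e).toMonoidHom = SU1 ι τ := by
  symm; ext g
  have h1 : (Classical.glCongr e g).val = e.mapMatrix g.val := rfl
  rw [Subgroup.mem_comap, mem_SU1, mem_SU1, MulEquiv.coe_toMonoidHom, h1, ← RingEquiv.map_det,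
    e.map_eq_one_iff, ← e.mapMatrix.map_eq_one_iff, map_mul]
  simp [transpose_map, Function.comp_def, he]

theorem exists_singerLike (hF : Fintype.card F = q ^ 2) (hn : n.Prime)
    {K : Subalgebra F (Matrix (Fin n) (Fin n) F)} (hK : IsFieldSubalgebra n K)
    (ha : IsAdjointClosedFor (hermForm n F q) K) {H : Subgroup (GL (Fin n) F)}
    (h : H ≤ subalgebraNormalizer K) {p N : ℕ} (hp : p.Prime)
    (hN : (q ^ n + 1).gcd (((q ^ 2) ^ n - 1) / (q ^ 2 - 1)) = N) (h1 : p ∣ N)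
    (h2 : p ∣ (q ^ 2) ^ n - 1) (h3 : p.Coprime (q ^ 2 - 1)) :
    ∃ x ∈ GU n F q ⊓ specialLinear (Fin n) F, orderOf x = p ∧ ∀ y ∈ zpowers x, y ≠ 1 →
      SingerLike (GU n F q ⊓ specialLinear (Fin n) F) H y (q ^ 2) N := by
  haveI : Nonempty (Fin n) := ⟨⟨0, hn.pos⟩⟩
  haveI := Fact.mk hp
  have hf := sesq_herm hF n
  have ha := hf.isAdjointClosedFor_iff.1 ha
  obtain ⟨L, _, _, _, ρ, Φ, hS⟩ := exists_singer (K := K) (by rwa [Fintype.card_fin])
  have hQ : Nat.card F = q ^ 2 := by rwa [Nat.card_eq_fintype_card]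
  obtain ⟨a, hσ⟩ := fq_ne hF
  obtain ⟨s, h4, h5, -⟩ := Fld.adj_eq_pow hK hf ha ⟨a • 1, K.smul_mem K.one_mem a, fun h => hσ (by
    rw [hf.adj_smul, hf.adj_one] at h; exact smul_left_injective F one_ne_zero h)⟩
  obtain rfl : q ^ n = s :=
    Nat.pow_left_injective two_ne_zero (by rw [← h4, hQ]; ring : (q ^ n) ^ 2 = s ^ 2)
  have hinj : Function.Injective ρ := ρ.toRingHom.injective
  have key : ∀ (g : GL (Fin n) F) l, g.val = ρ l →
      (g ∈ GU n F q ⊓ specialLinear (Fin n) F ↔ l ^ N = 1) := fun g l hg => by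
    have h6 := hS.det l
    rw [hQ, Fintype.card_fin, ← hg] at h6
    have h7 : adj (fq hF) (hermForm n F q) g * g.val = ρ (l ^ (q ^ n + 1)) := by
      rw [hg, h5 _ ((hS.range _).2 ⟨_, rfl⟩), map_pow, pow_succ]
    rw [← hN, _root_.pow_gcd_eq_one, ← h6, map_eq_one_iff _ (algebraMap F L).injective, mem_inf,
      mem_sl, ← map_eq_one_iff _ hinj, ← h7, GU_eq, mem_iso]
    exact and_congr_left' ⟨fun h => by rw [hf.adj_of_isom h, Units.inv_mul], hf.isom_of_adj⟩
  haveI := Fintype.ofFinite Lˣ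
  obtain ⟨l, hl⟩ := exists_prime_orderOf_dvd_card' (G := Lˣ) p (by
    rwa [Nat.card_units, hS.card, hQ, Fintype.card_fin])
  let φ : Lˣ →* GL (Fin n) F := Units.map ρ.toRingHom.toMonoidHom
  have hφ : Function.Injective φ := Units.map_injective hinj
  refine ⟨φ l, (key _ l rfl).2 ?_, by rwa [orderOf_injective φ hφ], ?_⟩
  · obtain ⟨k, rfl⟩ := h1
    rw [← Units.val_pow_eq_pow_val, pow_mul, ← hl, pow_orderOf_eq_one, one_pow, Units.val_one]
  rintro _ ⟨i, rfl⟩ h6
  simp only [← map_zpow, ne_eq, map_eq_one_iff _ hφ] at h6 ⊢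
  have h7 : (l ^ i) ^ p = 1 := by
    rw [← zpow_natCast, ← _root_.zpow_mul, mul_comm, _root_.zpow_mul, ← hl]; simp
  generalize l ^ i = l at h6 h7
  have h8 : ∀ y : GL (Fin n) F, Commute y (φ l) → ∃ k : Lˣ, φ k = y := fun y hy => by
    haveI := Subalgebra.isSimpleOrder_of_finrank_prime F L (by
      have := Module.natCard_eq_pow_finrank (K := F) (V := L)
      rw [hS.card, Fintype.card_fin, Nat.pow_right_inj (two_le_natCard F)] at this
      exact this ▸ hn)
    have hl : (l : L) ∈ (Subalgebra.centralizer F {y.val}).comap ρ := by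
      rintro _ rfl; exact congrArg Units.val hy.eq
    obtain h9 | h9 := eq_bot_or_eq_top ((Subalgebra.centralizer F {y.val}).comap ρ)
    · obtain ⟨c, hc⟩ := Algebra.mem_bot.1 (h9 ▸ hl)
      have := FiniteField.pow_card_sub_one_eq_one c (fun h => l.ne_zero (by rw [← hc, h, map_zero]))
      refine absurd (Units.ext ?_) h6
      rw [← pow_one (l : L), ← h3, Units.val_one, _root_.pow_gcd_eq_one, ← hF]
      exact ⟨by rw [← Units.val_pow_eq_pow_val, h7, Units.val_one], by rw [← hc, ← map_pow, this, map_one]⟩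
    obtain ⟨k, hk⟩ := Φ.surjective (y.val *ᵥ Φ 1)
    have h10 : ρ k = y.val := ext_mulVec fun v => by
      obtain ⟨x, rfl⟩ := Φ.surjective v
      have : y.val * ρ x = ρ x * y.val := (h9.ge Algebra.mem_top : x ∈ _) _ rfl
      conv_rhs => rw [← mul_one x, ← hS.app, mulVec_mulVec, this, ← mulVec_mulVec, ← hk]
      rw [hS.app, hS.app, mul_comm]
    exact ⟨Units.mk0 k fun h => y.ne_zero (by rw [← h10, h, map_zero]), Units.ext h10⟩
  refine ⟨fun g hg => ?_, fun y hy h9 h10 k hk h11 => ?_⟩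
  · obtain ⟨α, k, -, h9⟩ := hS.norm g (h hg)
    obtain ⟨p', _⟩ := CharP.exists F
    haveI := Fact.mk (CharP.char_is_prime F p')
    obtain ⟨j, hj⟩ := FiniteField.exists_forall_apply_eq_pow F p' L α
    refine ⟨j, mul_inv_eq_iff_eq_mul.2 (Units.ext (ext_mulVec fun v => ?_))⟩
    obtain ⟨x, rfl⟩ := Φ.surjective v
    rw [← map_pow, Units.val_mul, Units.val_mul, ← mulVec_mulVec, ← mulVec_mulVec, h9]
    change g.val *ᵥ ρ l *ᵥ _ = ρ ((l ^ _ : Lˣ) : L) *ᵥ _
    rw [hS.app, hS.app, h9, map_mul α, hj, hQ, Units.val_pow_eq_pow_val, mul_assoc]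
  · obtain ⟨y, rfl⟩ := h8 y h9
    obtain ⟨k, rfl⟩ := h8 k h11
    rw [orderOf_injective φ hφ] at h10
    have hN0 : NeZero N := ⟨h10 ▸ (orderOf_pos y).ne'⟩
    obtain ⟨i, -, hi⟩ := (h10 ▸ IsPrimitiveRoot.orderOf y).eq_pow_of_mem_rootsOfUnity
      ((mem_rootsOfUnity' N k).2 ((key _ k rfl).1 hk))
    exact ⟨i, by simp [← hi]⟩

theorem singer_red (hF : Fintype.card F = q ^ 2) (hn : n.Prime)
    {K : Subalgebra F (Matrix (Fin n) (Fin n) F)} (hK : IsFieldSubalgebra n K)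
    (ha : IsAdjointClosedFor (hermForm n F q) K) {H : Subgroup (GL (Fin n) F)}
    (hH : IsMaximalIn (GU n F q ⊓ specialLinear (Fin n) F) H)
    (h : H ≤ subalgebraNormalizer K) {p N : ℕ} (hp : p.Prime)
    (hN : (q ^ n + 1).gcd (((q ^ 2) ^ n - 1) / (q ^ 2 - 1)) = N) (h1 : p ∣ N)
    (h2 : p ∣ (q ^ 2) ^ n - 1) (h3 : p.Coprime (q ^ 2 - 1))
    (h4 : (Nat.card (GU n F q ⊓ specialLinear (Fin n) F : Subgroup _)).factorization p = 1)
    (he : ∃ e : E ≃+* F, ∀ x, e (τ x) = fq hF (e x)) {x : GL (Fin n) E} (hx : x ∈ SU1 _ τ)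
    (h5 : x ^ p = 1) (h6 : x ≠ 1) :
    ∃ H, IsMaximalIn (SU1 _ τ) H ∧ SingerLike (SU1 _ τ) H x (q ^ 2) N := by
  haveI := Fact.mk hp
  obtain ⟨e, he⟩ := he
  obtain ⟨y, hy, h7, h8⟩ := exists_singerLike hF hn hK ha h hp hN h1 h2 h3
  have h9 := comap_SU1 (ι := Fin n) e he
  rw [← su_eq hF] at h9
  obtain ⟨ψ, h10, h11⟩ := sylow_red hp (zpowers_le.2 hy) (by rw [Nat.card_zpowers, h7, pow_one]) h4
    (Classical.glCongr e) (h9 ▸ zpowers_le.2 hx) (IsPGroup.of_card (n := 1) (by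
      rw [Nat.card_zpowers, orderOf_eq_prime h5 h6, pow_one]))
  rw [← h9, ← h10]
  exact ⟨_, max_comap hH ψ, (h8 _ (h11 x (mem_zpowers x)) (by simpa using h6)).comap ψ⟩

theorem le_sl_of_card (h6 : (6 : F) ≠ 0) {R : Subgroup (GL (Fin 3) F)}
    (h1 : IsSymplecticTypeGroup 3 R) (hs : gspan R = ⊤) (h2 : Nat.card (center R) = 3)
    (h3 : Nat.card R = 27) : R ≤ specialLinear _ F := fun x hx => by
  haveI := Fact.mk Nat.prime_three
  have h4 : x ^ 3 = 1 := by
    have := Monoid.pow_exponent_eq_one (⟨x, hx⟩ : R)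
    rw [h1.exponent_eq] at this
    exact congrArg Subtype.val this
  have h5 : x.val * x.val * x.val = 1 := by rw [← pow_three', ← Units.val_pow_eq_pow_val, h4]; rfl
  rw [mem_sl]
  by_cases h0 : trace x.val = 0
  · have : 6 * x.val.det = trace x.val * (trace x.val ^ 2 - 3 * trace (x.val * x.val)) +
        2 * trace (x.val * x.val * x.val) := by
      simp only [det_fin_three, trace_fin_three, mul_apply, Fin.sum_univ_three]; ring
    rw [h0, h5, trace_one, Fintype.card_fin] at this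
    exact mul_left_cancel₀ h6 (by rw [this]; norm_num)
  have h7 : Nat.card (R ⧸ center R) = 3 ^ 2 := by
    have := card_eq_card_quotient_mul_card_subgroup (center R)
    rw [h2, h3] at this
    omega
  obtain ⟨c, hc⟩ := schur hs (y := x.val) fun y hy => by
    have h8 := (IsPGroup.commutative_of_card_eq_prime_sq h7 (⟨x, hx⟩ : R) (⟨y, hy⟩ : R))
    rw [← QuotientGroup.mk_mul, ← QuotientGroup.mk_mul, QuotientGroup.eq, center_eq hs] at h8
    obtain ⟨c, hc⟩ := mem_scalars_iff_sc.1 h8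
    have h9 : y * x * y⁻¹ = x * sc _ c := by
      rw [mul_inv_eq_iff_eq_mul, mul_assoc, sc_comm, ← mul_assoc, hc]; simp [mul_assoc]
    have h10 := congrArg (fun z : GL (Fin 3) F => trace z.val) h9
    simp only [Units.val_mul, trace_units_conj] at h10
    rw [← Units.val_mul, coe_mul_sc, trace_smul, smul_eq_mul, eq_comm, mul_eq_right₀ h0,
      Units.val_eq_one] at h10
    rw [h10, map_one, mul_one, mul_inv_eq_iff_eq_mul] at h9
    exact (congrArg Units.val h9).symm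
  have h8 := congrFun (congrFun h5 0) 0
  simp [hc] at h8 ⊢
  linear_combination h8

theorem sub_red (hF : Fintype.card F = q ^ 2) (ho : Odd q) {H : Subgroup (GL (Fin 3) F)}
    (hH : IsMaximalIn (GU 3 F q ⊓ specialLinear (Fin 3) F) H) {K : Subfield F} {P : GL (Fin 3) F}
    (hc : Fintype.card F = Nat.card K ^ 2) (h1 : IsFormRationalStructure (hermForm 3 F q) K 1 P)
    (h : H ≤ subfieldSubgroup K P) (he : ∃ e : E ≃+* F, ∀ x, e (τ x) = fq hF (e x)) :
    ∃ H, IsMaximalIn (SU1 (Fin 3) τ) H ∧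
      ∀ g ∈ H, ∃ c : E, c ≠ 0 ∧ ∀ i j, τ (c * g.val i j) = c * g.val i j := by
  obtain ⟨e, he⟩ := he
  have hf := sesq_herm hF 3
  obtain rfl : fixF (fq hF) = K := subfield_eq_of_card (by
    rw [card_fixF_fq]; exact Nat.pow_left_injective two_ne_zero (hF.symm.trans hc))
  have hp := hf.pull (Equiv.refl _) P
  let G : Matrix (Fin 3) (Fin 3) (fixF (fq hF)) := of fun i j => ⟨_, h1 (Pi.single i 1)
    (Pi.single j 1) (fun k => by simp [Pi.single_apply, apply_ite, one_mem, zero_mem])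
    fun k => by simp [Pi.single_apply, apply_ite, one_mem, zero_mem]⟩
  have hG : G.map (fixF (fq hF)).subtype = gramMatrix (pull (Equiv.refl _) P (hermForm 3 F q)) := by
    ext i j; exact one_mul _
  have hd : G.det ≠ 0 := fun h0 => hp.gram_det_ne (by
    rw [← hG, ← RingHom.mapMatrix_apply, ← RingHom.map_det, h0, map_zero])
  have hs : Sesq (RingEquiv.refl _) 1 (formOfGram (RingEquiv.refl _) G) :=
    sesq_formOfGram (fun _ => rfl) (by simp) hd (ext fun i j => Subtype.ext (by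
      have := congrFun (congrFun (hG ▸ hp.gram_transpose) i) j
      simpa [mem_fixF.1 (G i j).2] using this))
  obtain ⟨a, ha⟩ := (sesq_diag (d := fun _ : Fin 3 => G.det) fun _ => hd).exists_congr_of_det hs
    (fun h => (odd_q_iff hF).1 ho (congrArg Subtype.val h)) rfl (by
      simpa [gramMatrix_formOfGram, -RingEquiv.coe_refl, ← pow_succ] using ⟨G.det ^ 2, by ring⟩)
  obtain ⟨T, hT⟩ := exists_frame_of_eq (Equiv.refl _) a
  have h2 : T.valᵀ * G * T.val = G.det • 1 := by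
    refine formOfGram_inj (RingEquiv.refl _) fun u v => ?_
    rw [smul_one_eq_diagonal, ← ha, ← hT, ← hT]
    exact (gram_sim (RingEquiv.refl _) G T.val u v).symm
  obtain ⟨b, hb⟩ := exists_norm_invol (fq_fq hF) (fq_ne hF) (mem_fixF.1 (G.det⁻¹).2)
  have hd' : (G.det : F) ≠ 0 := fun h => hd (Subtype.ext h)
  have hb0 : b ≠ 0 := by rintro rfl; exact hd' (by simpa using hb.symm)
  let T' := GeneralLinearGroup.map (fixF (fq hF)).subtype T
  have h3 : IsMaximalIn (pullG _ _ _) (pullG (Equiv.refl _) (P * T' * sc _ (Units.mk0 b hb0)) H) :=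
    max_comap hH _
  have h4 : pull (Equiv.refl _) (P * T' * sc _ (Units.mk0 b hb0)) (hermForm 3 F q) =
      formOfGram (fq hF) 1 := by
    rw [(hf.pull _ _).eq_fun, gram_pull_sc hf, Units.val_mk0, hb, hf.gram_pull, Units.val_mul,
      transpose_mul, Matrix.map_mul, mul_assoc, mul_assoc, ← mul_assoc (gramMatrix _),
      ← mul_assoc P.valᵀ, ← mul_assoc P.valᵀ, ← hf.gram_pull, ← hG, ← mul_assoc]
    have h5 : T'.val.map (fq hF) = T'.val := ext fun i j => mem_fixF.1 (T.val i j).2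
    have h6 := congrArg (·.map (fixF (fq hF)).subtype) h2
    simp only [Matrix.map_mul, transpose_map] at h6
    rw [h5, show T'.val = T.val.map (fixF (fq hF)).subtype from rfl, h6]
    congr 1; ext i j
    simp [one_apply, apply_ite, hd']
  rw [GU_eq, pullG_su, h4] at h3
  refine ⟨_, max_field e he h3, fun g hg => ?_⟩
  obtain ⟨c, hc0, h5⟩ := mem_subfieldSubgroup.1 (h hg)
  have h6 : ∀ U : GL (Fin 3) (fixF (fq hF)), ∀ i j,
      (GeneralLinearGroup.map (fixF (fq hF)).subtype U).val i j ∈ fixF (fq hF) :=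
    fun U i j => (U.val i j).2
  refine ⟨e.symm c, by simpa, fun i j => e.injective ?_⟩
  have h7 : cj T'⁻¹ (c • cj P⁻¹ (tg (Equiv.refl _) (P * T' * sc _ (Units.mk0 b hb0))
      (Classical.glCongr e g)).val) = c • g.val.map e := by
    rw [map_smul, coe_tg, tp_apply, cj_mul, cj_mul, cj_inv_cj, cj_inv_cj, cj_scalar (sc_mem _)]; rfl
  have h8 : (c • g.val.map e) i j ∈ fixF (fq hF) := by
    rw [← h7, cj_apply, inv_inv, ← map_inv]
    simp only [mul_apply]
    exact sum_mem fun k _ => mul_mem (sum_mem fun l _ => mul_mem (h6 _ _ _) (h5 _ _)) (h6 _ _ _)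
  simpa [he] using mem_fixF.1 h8

section cert

variable {ι : Type} [Fintype ι] [DecidableEq ι]

/-- A set of vectors invariant under the unitary matrices that are real up to a scalar. -/
def realS (τ : E ≃+* E) (P₁ P₂ : E → Prop) (v : ι → E) : Prop :=
  ∑ i, v i * τ (v i) = 1 ∧ (P₁ ((v ⬝ᵥ v) ^ 3) ∨
    P₂ ((v ⬝ᵥ v) ^ 3) ∧ ∃ c : E, c ≠ 0 ∧ ∀ i, τ (c * v i) = c * v i)

theorem mem_realS [Finite E] (P₁ P₂ : E → Prop) {g : GL (Fin 3) E} (hg : g ∈ SU1 _ τ) {c : E}
    (hc : c ≠ 0) (h : ∀ i j, τ (c * g.val i j) = c * g.val i j) :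
    g ∈ sstab {v | realS τ P₁ P₂ v} := mem_sstab fun v ⟨h1, h2⟩ => by
  obtain ⟨h3, h4⟩ := mem_SU1.1 hg
  have h5 : g.valᵀ * g.val = (τ c / c) • 1 := by
    rw [← h3, ← Matrix.mul_smul]; congr 1; ext i j
    rw [Matrix.smul_apply, map_apply, smul_eq_mul, div_mul_eq_mul_div, ← map_mul, h,
      mul_div_cancel_left₀ _ hc]
  have h6 : (τ c / c) ^ 3 = 1 := by simpa [h4] using (congrArg det h5).symm
  have h7 : (g.val *ᵥ v ⬝ᵥ g.val *ᵥ v) ^ 3 = (v ⬝ᵥ v) ^ 3 := by
    rw [dotProduct_mulVec, ← mulVec_transpose, dotProduct_comm, mulVec_mulVec, h5, smul_mulVec, dotProduct_smul,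
      smul_eq_mul, mul_pow, h6, one_mul, one_mulVec]
  refine ⟨?_, h7 ▸ h2.imp_right fun ⟨h8, d, hd, h9⟩ => ⟨h8, c * d, mul_ne_zero hc hd, fun i => ?_⟩⟩
  · rw [← form_one, mem_iso.1 hg.1, form_one, h1]
  · simp only [mulVec, dotProduct, Finset.mul_sum, map_sum]
    exact Finset.sum_congr rfl fun j _ => by rw [mul_mul_mul_comm, map_mul, h, h9]

/-- An explicit unitary matrix. -/
def uGL (M : Matrix ι ι E) (h : Mᵀ * M.map τ = 1) : GL ι E :=
  ⟨M, (M.map τ)ᵀ, mul_eq_one_comm.1 (by simpa using congrArg transpose h),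
    by simpa using congrArg transpose h⟩

theorem uGL_mem {M : Matrix ι ι E} (h : Mᵀ * M.map τ = 1) (hd : M.det = 1) : uGL M h ∈ SU1 ι τ :=
  mem_SU1.2 ⟨h, hd⟩

variable {p : ℕ} {a b : ZMod p}

/-- Codes of elements of a quadratic extension of a prime field. -/
def qc (x : QuadraticAlgebra (ZMod p) a b) : ℕ := x.re.val + p * x.im.val

/-- Codes of vectors. -/
def vc (v : Fin 3 → QuadraticAlgebra (ZMod p) a b) : ℕ :=
  qc (v 0) + p * p * (qc (v 1) + p * p * qc (v 2))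

/-- The set of vectors given by a bit mask. -/
def mset (a b : ZMod p) (m : ℕ) : Set (Fin 3 → QuadraticAlgebra (ZMod p) a b) :=
  {v | m.testBit (vc v)}

/-- Decoding. -/
def qd (n : ℕ) : QuadraticAlgebra (ZMod p) a b := ⟨(n % p : ℕ), (n / p : ℕ)⟩

theorem qd_qc [NeZero p] (x : QuadraticAlgebra (ZMod p) a b) : qc x < p * p ∧ qd (qc x) = x := by
  have h1 := ZMod.val_lt x.re
  have h2 := ZMod.val_lt x.im
  refine ⟨by unfold qc; nlinarith, QuadraticAlgebra.ext ?_ ?_⟩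
  · simp [qd, qc]
  · simp [qd, qc, Nat.add_mul_div_left _ _ (NeZero.pos p), Nat.div_eq_of_lt h1]

theorem mem_mset [Fact p.Prime] [Fact (∀ r, r ^ 2 ≠ a + b * r)] {m : ℕ}
    {g : GL (Fin 3) (QuadraticAlgebra (ZMod p) a b)} (h : ∀ k < p * p, ∀ j < p * p, ∀ i < p * p,
      m.testBit (i + p * p * (j + p * p * k)) → m.testBit (vc (g.val *ᵥ ![qd i, qd j, qd k]))) :
    g ∈ sstab (mset a b m) := mem_sstab fun v hv => by
  have := h _ (qd_qc (v 2)).1 _ (qd_qc (v 1)).1 _ (qd_qc (v 0)).1 hv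
  rwa [(qd_qc _).2, (qd_qc _).2, (qd_qc _).2,
    show ![v 0, v 1, v 2] = v from funext fun i => by fin_cases i <;> rfl] at this

theorem not_mem_mset [Fact p.Prime] [Fact (∀ r, r ^ 2 ≠ a + b * r)] {m : ℕ}
    {g : GL (Fin 3) (QuadraticAlgebra (ZMod p) a b)} (v) (h : m.testBit (vc v))
    (h' : m.testBit (vc (g.val *ᵥ v)) = false) : g ∉ sstab (mset a b m) := fun hg =>
  Bool.eq_false_iff.1 h' ((hg v).1 h)

theorem fact_su (hF : Fintype.card F = q ^ 2) (hn : 1 ≤ n) {p k : ℕ} (hp : p.Prime) (m : ℕ)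
    (h : q ^ (n * (n - 1) / 2) * ∏ i ∈ Finset.range n,
      (if Even i then q ^ (i + 1) + 1 else q ^ (i + 1) - 1) = (q + 1) * (p ^ k * m))
    (h' : ¬ p ∣ m) :
    (Nat.card (GU n F q ⊓ specialLinear (Fin n) F : Subgroup _)).factorization p = k := by
  rw [Nat.eq_of_mul_eq_mul_left q.succ_pos ((card_su hF hn).trans h), Nat.factorization_mul
    (pow_ne_zero _ hp.ne_zero) (by rintro rfl; simp at h')]
  simp [hp.factorization_pow, Nat.factorization_eq_zero_of_not_dvd h']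

theorem forall_three {α : Type*} {P : (Fin 3 → α) → Prop} (h : ∀ a b c, P ![a, b, c]) (v) : P v := by
  rw [show v = ![v 0, v 1, v 2] from funext fun i => by fin_cases i <;> rfl]; exact h _ _ _

end cert

end Cfsg.Agent.Asch
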