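import Cfsg.Agent.Asch.SU6

/-! `3^{1+2}:Q₈` is not maximal in `SU₃(5)`. -/

set_option autoImplicit false

namespace Cfsg.Agent.Asch

open Matrix Cfsg.Geo Subgroup

theorem not_sym5 {F : Type*} [Field F] [Fintype F] (hF : Fintype.card F = 5 ^ 2)
    {H : Subgroup (GL (Fin 3) F)} (hH : IsMaximalIn (GU 3 F 5 ⊓ specialLinear (Fin 3) F) H)
    {R : Subgroup (GL (Fin 3) F)} (h1 : IsSymplecticTypeGroup 3 R) (hs : gspan R = ⊤)
    (hU : R ≤ GU 3 F 5) (h2 : Nat.card (center R) = 3) (h3 : Nat.card R = 27) :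
    ¬ H ≤ subgroupNormalizer R := by
  intro h
  obtain ⟨e, he⟩ := exists_K25 hF
  have h4 := comap_SU1 (ι := Fin 3) e he
  rw [← su_eq hF] at h4
  have h5 : (6 : F) ≠ 0 := by
    rw [← map_ofNat e 6, e.map_ne_zero_iff]; decide +kernel
  obtain ⟨ψ, h6, h7⟩ := sylow_red (k := 3) Nat.prime_three (le_inf hU (le_sl_of_card h5 h1 hs h2 h3)) h3
    (fact_su hF (by omega) Nat.prime_three 14000 (by decide) (by decide)) (Classical.glCongr e)
    (B := R27) (h4 ▸ fun g ⟨i, j, k, hg⟩ => mem_SU1.2 (hg ▸ ⟨(rM_uni i j k).1, (rM_uni i j k).2.1⟩))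
    fun ⟨g, i, j, k, hg⟩ => ⟨1, Subtype.ext ((Units.ext hg : g = rG i j k) ▸ rG_pow i j k)⟩
  have h8 := max_comap hH ψ
  rw [h6, h4] at h8
  have h9 : R27 = R.comap ψ.toMonoidHom := eq_of_le_of_card_ge h7 (by
    rw [← card_map_of_injective (f := ψ.toMonoidHom) ψ.injective,
      map_comap_eq_self_of_surjective ψ.surjective, h3]
    simpa using Nat.card_le_card_of_injective (fun x : Fin 3 × Fin 3 × Fin 3 =>
      (⟨rG x.1 x.2.1 x.2.2, _, _, _, rfl⟩ : R27)) fun x y h => by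
        have : rM x.1 x.2.1 x.2.2 = rM y.1 y.2.1 y.2.2 := congrArg (·.1.val) h
        revert this; revert x y; decide +kernel)
  have h10 : ∀ g ∈ H.comap ψ.toMonoidHom, ∀ x ∈ R27, g * x * g⁻¹ ∈ R27 := fun g hg x hx => by
    rw [h9] at hx ⊢
    simpa using nrm_normalizer R _ (h hg) _ hx
  have h11 : ∀ g : GL (Fin 3) K25, ∀ i j k, g * rG i j k * g⁻¹ ∈ R27 →
      ∃ i' j' k', g.val * rM i j k = rM i' j' k' * g.val := fun g i j k ⟨i', j', k', h⟩ =>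
    ⟨i', j', k', by rw [← h, Units.val_mul, Units.inv_mul_cancel_right]; rfl⟩
  refine absurd (h11 _ 0 1 0 (h10 _ (not_max h8 (fun g hg => ?_) w35_mem (not_mem_mset
    ![⟨0, 0⟩, ⟨0, 1⟩, ⟨1, 3⟩] (by decide +kernel) (by decide +kernel)) 
    (wM10 [0, 0, 1, 1, 1, 0, 0, 1, 0, 0, 1, 1, 1]).2 (wM10 _).1) _ ⟨0, 1, 0, rfl⟩)) (by decide +kernel)
  obtain ⟨i, j, k, h12⟩ := h11 _ 0 1 0 (h10 g hg _ ⟨0, 1, 0, rfl⟩)
  obtain ⟨rfl, rfl⟩ | ⟨l, hl⟩ := conj_R27 i j k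
  · have : ∀ k, ∃ c : K25, rM 0 0 k = c • 1 ∧ rM 0 1 0 ≠ c • 1 := by decide +kernel
    obtain ⟨c, h13, h14⟩ := this k
    rw [h13, Matrix.smul_mul, one_mul, ← mul_one g.val, ← Matrix.mul_smul, mul_assoc, one_mul,
      Units.mul_right_inj] at h12
    exact absurd h12 h14
  have hu := wR27 l
  generalize wd ![rG 1 0 0, rG 0 1 0, i10, j10] l = u at hl hu
  obtain ⟨d, rfl⟩ : ∃ d, g = u * d := ⟨u⁻¹ * g, by simp⟩
  rw [Units.val_mul, mul_assoc, ← mul_assoc (rM i j k), ← hl, mul_assoc, Units.mul_right_inj] at h12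
  have h13 := (Subgroup.mul_mem_cancel_left _ hu.1.2).1 (h8.1.le hg)
  have h14 := (Subgroup.mul_mem_cancel_left _ hu.2).1 (Nrm.le_normalizer h10 hg)
  have h15 : d.val = diagonal ![d.val 0 0, d.val 1 1, d.val 2 2] := by
    have : ∀ i j, i ≠ j → ∀ x : K25, x * rM 0 1 0 j j = rM 0 1 0 i i * x → x = 0 := by
      decide +kernel
    have h16 : rM 0 1 0 = diagonal fun i => rM 0 1 0 i i := by decide +kernel
    ext1 a b
    have h17 := congrFun (congrFun h12 a) b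
    rw [h16, mul_diagonal, diagonal_mul] at h17
    by_cases hab : a = b
    · subst hab; fin_cases a <;> rfl
    · rw [this a b hab _ h17, diagonal_apply_ne _ hab]
  obtain ⟨h16, h17⟩ := mem_SU1.1 h13
  rw [h15, det_diagonal, Fin.prod_univ_three] at h17
  rw [h15, diagonal_transpose, diagonal_map (map_zero _), diagonal_mul_diagonal, ← diagonal_one,
    diagonal_eq_diagonal_iff] at h16
  obtain ⟨a, b, h18⟩ := diag_R27 _ (h16 0) _ (h16 1) _ h17
    (h15 ▸ h11 d 1 0 0 (nrm_normalizer _ d h14 _ ⟨1, 0, 0, rfl⟩))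
  exact mul_mem hu.1.1 ((Units.ext (h15.trans h18) : d = _) ▸ (wR27 _).1.1)

end Cfsg.Agent.Asch
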